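import Cfsg.Agent.FiTwoTwoU62.Data
import Cfsg.Agent.H29.CosetCert.Sound
import Cfsg.Agent.G2Four.Field
import Cfsg.Agent.UGeom.Simple
import Cfsg.Agent.UGeom.Center

/-!
The action of `SU₆(2)` on 693 isotropic points.
-/

set_option autoImplicit false
set_option maxRecDepth 100000
set_option Elab.async false

namespace CfsgLib.FiTwoTwoU62

open H29.CosetCert CfsgLib.G2Four CfsgLib.UGeom Matrix

/-- Digit to element. -/
def ofN : ℕ → Q
  | 1 => .e
  | 2 => .a
  | 3 => .b
  | _ => .z

/-- Element to digit. -/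
def toN : Q → ℕ
  | .z => 0
  | .e => 1
  | .a => 2
  | .b => 3

/-- A coordinate of a coded vector. -/
def dig (c j : ℕ) : Q := ofN (c / 4 ^ j % 4)

/-- The code of six coordinates. -/
def encV (w : ℕ → Q) : ℕ :=
  toN (w 0) + 4 * toN (w 1) + 16 * toN (w 2) + 64 * toN (w 3) + 256 * toN (w 4) + 1024 * toN (w 5)

/-- The Hermitian form on coordinates. -/
def herm (u v : ℕ → Q) : Q :=
  u 0 * (v 0 * v 0) + u 1 * (v 1 * v 1) + u 2 * (v 2 * v 2) + u 3 * (v 3 * v 3) + u 4 * (v 4 * v 4) + u 5 * (v 5 * v 5)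

/-- The code of a vector number. -/
def vcode (q : ℕ) : ℕ := pick Data.vecT q

/-- The number of a code. -/
def vidx (c : ℕ) : ℕ := pick Data.idxT c

/-- The code of a transvection vector. -/
def tcode (k : ℕ) : ℕ := Data.tvec.getD k 0

theorem vec_ok : allIn (fun q => !(Nat.beq (vcode q) 0) && Nat.blt (vcode q) 4096 &&
    (herm (dig (vcode q)) (dig (vcode q)) == Q.z) &&
    [Q.e, Q.a, Q.b].all fun l => Nat.beq (vidx (encV fun j => l * dig (vcode q) j)) q) 0 693 = true := by
  decide +kernel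

theorem complete_ok : allIn (fun c => Nat.beq c 0 || !(herm (dig c) (dig c) == Q.z) || (Nat.blt (vidx c) 693 &&
    [Q.e, Q.a, Q.b].any fun l => allIn (fun j => dig c j == l * dig (vcode (vidx c)) j) 0 6)) 0 4096 = true := by
  decide +kernel

theorem tvec_ok : allIn (fun k => herm (dig (tcode k)) (dig (tcode k)) == Q.z) 0 8 = true := by decide +kernel

/-- The code of the image of a coded vector under a transvection. -/
def tmove (k c : ℕ) : ℕ := encV fun j => dig c j + herm (dig c) (dig (tcode k)) * dig (tcode k) j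

/-- A coded vector. -/
def dv (c : ℕ) : Fin 6 → Q := fun j => dig c j.val

/-- The code of a vector. -/
def cd (w : Fin 6 → Q) : ℕ := encV fun j => if h : j < 6 then w ⟨j, h⟩ else 0

theorem ofN_toN (x : Q) : ofN (toN x) = x := by cases x <;> rfl

theorem toN_lt (x : Q) : toN x < 4 := by cases x <;> decide

theorem dv_encV (w : ℕ → Q) : dv (encV w) = fun j => w j.val := by
  funext j
  have := toN_lt (w 0); have := toN_lt (w 1); have := toN_lt (w 2)
  have := toN_lt (w 3); have := toN_lt (w 4); have := toN_lt (w 5)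
  have key : encV w / 4 ^ j.val % 4 = toN (w j.val) := by
    fin_cases j <;> simp only [encV] <;> norm_num <;> omega
  rw [dv, dig, key, ofN_toN]

theorem encV_lt (w : ℕ → Q) : encV w < 4096 := by
  have := toN_lt (w 0); have := toN_lt (w 1); have := toN_lt (w 2)
  have := toN_lt (w 3); have := toN_lt (w 4); have := toN_lt (w 5)
  simp only [encV]
  omega

theorem encV_ext {w w' : ℕ → Q} (h : ∀ j < 6, w j = w' j) : encV w = encV w' := by
  simp only [encV, h 0 (by norm_num), h 1 (by norm_num), h 2 (by norm_num), h 3 (by norm_num), h 4 (by norm_num),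
    h 5 (by norm_num)]

theorem dv_cd (w : Fin 6 → Q) : dv (cd w) = w := by
  rw [cd, dv_encV]
  funext j
  rw [dif_pos j.2]

theorem hermForm_dv (c d : ℕ) : Cfsg.hermForm 6 Q 2 (dv c) (dv d) = herm (dig c) (dig d) := by
  simp [Cfsg.hermForm, Fin.sum_univ_six, herm, dv, pow_two]

theorem allIn_get {p : ℕ → Bool} {n i : ℕ} (h : allIn p 0 n = true) (hi : i < n) : p i = true :=
  (allIn_iff p n 0).1 h i (Nat.zero_le _) (by omega)

theorem nonzero_cases {l : Q} (h : l ≠ 0) : l ∈ [Q.e, Q.a, Q.b] := by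
  revert h; revert l; decide

/-- The vector of a number. -/
def pv (q : Fin 693) : Fin 6 → Q := dv (vcode q)

theorem vec_spec (q : Fin 693) : vcode q ≠ 0 ∧ vcode q < 4096 ∧ herm (dig (vcode q)) (dig (vcode q)) = 0 ∧
    ∀ l : Q, l ≠ 0 → vidx (encV fun j => l * dig (vcode q) j) = q := by
  have h := allIn_get vec_ok q.2
  simp only [Bool.and_eq_true, List.all_eq_true, Nat.beq_eq, Bool.not_eq_true', Nat.blt_eq, beq_iff_eq] at h
  exact ⟨fun e => by simp [e] at h, h.1.1.2, h.1.2, fun l hl => h.2 l (nonzero_cases hl)⟩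

theorem pv_iso (q : Fin 693) : Cfsg.hermForm 6 Q 2 (pv q) (pv q) = 0 := by
  rw [pv, hermForm_dv]; exact (vec_spec q).2.2.1

theorem pv_ne (q : Fin 693) : pv q ≠ 0 := by
  intro h
  obtain ⟨h0, h1, -, -⟩ := vec_spec q
  have hd : ∀ j, j < 6 → vcode q.val / 4 ^ j % 4 = 0 := fun j hj => by
    have h2 : dig (vcode q.val) j = Q.z := congrFun h ⟨j, hj⟩
    have h3 : vcode q.val / 4 ^ j % 4 < 4 := Nat.mod_lt _ (by norm_num)
    revert h2 h3
    unfold dig
    generalize vcode q.val / 4 ^ j % 4 = n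
    intro h2 h3
    interval_cases n <;> simp_all [ofN]
  have := hd 0 (by norm_num); have := hd 1 (by norm_num); have := hd 2 (by norm_num)
  have := hd 3 (by norm_num); have := hd 4 (by norm_num); have := hd 5 (by norm_num)
  norm_num at *
  omega

theorem complete {w : Fin 6 → Q} (hw : w ≠ 0) (hi : Cfsg.hermForm 6 Q 2 w w = 0) :
    ∃ q : Fin 693, ∃ l : Q, w = l • pv q := by
  have h := allIn_get complete_ok (show cd w < 4096 from encV_lt _)
  simp only [Bool.or_eq_true, Bool.and_eq_true, Nat.beq_eq, Nat.blt_eq, List.any_eq_true, Bool.not_eq_true',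
    beq_eq_false_iff_ne] at h
  rcases h with (h | h) | ⟨hlt, l, -, hl⟩
  · exfalso
    apply hw
    rw [← dv_cd w, show cd w = 0 from h]
    funext j
    fin_cases j <;> rfl
  · exact absurd (show herm (dig (cd w)) (dig (cd w)) = Q.z by rw [← hermForm_dv, dv_cd]; exact hi) h
  · refine ⟨⟨_, hlt⟩, l, funext fun j => ?_⟩
    have h1 := allIn_get hl j.2
    rw [beq_iff_eq] at h1
    conv_lhs => rw [← dv_cd w]
    exact h1

theorem vidx_smul {w : Fin 6 → Q} (hw : w ≠ 0) {p : Fin 693} {l : Q} (h : w = l • pv p) : vidx (cd w) = p := by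
  have hl : l ≠ 0 := fun e => hw (by rw [h, e, zero_smul])
  rw [← (vec_spec p).2.2.2 l hl]
  congr 1
  refine encV_ext fun j hj => ?_
  rw [dif_pos hj, h]
  rfl

theorem pv_unique {w : Fin 6 → Q} (hw : w ≠ 0) {p q : Fin 693} {l m : Q} (h1 : w = l • pv p) (h2 : w = m • pv q) :
    p = q := Fin.ext ((vidx_smul hw h1).symm.trans (vidx_smul hw h2))

/-- The conjugation of the field. -/
noncomputable def conjQ : Conj Q 2 := (nonempty_conj (show Fintype.card Q = 2 ^ 2 from rfl)).some

/-- The matrix of an element. -/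
abbrev smat (A : Cfsg.SU 6 Q 2) : Matrix (Fin 6) (Fin 6) Q :=
  ((A : Matrix.SpecialLinearGroup (Fin 6) Q) : Matrix (Fin 6) (Fin 6) Q)

theorem exists_line (A : Cfsg.SU 6 Q 2) (p : Fin 693) : ∃ q : Fin 693, ∃ l : Q, smat A *ᵥ pv p = l • pv q :=
  complete (SU_mulVec_ne_zero A (pv_ne p)) (by rw [SU_form A, pv_iso])

/-- The action on the points. -/
noncomputable def sigU : Cfsg.SU 6 Q 2 →* Equiv.Perm (Fin 693) :=
  MonoidHom.toHomPerm
    { toFun := fun g => (fun p => (exists_line g p).choose : Function.End (Fin 693))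
      map_one' := funext fun p => by
        obtain ⟨l, hl⟩ := (exists_line 1 p).choose_spec
        refine (pv_unique (SU_mulVec_ne_zero 1 (pv_ne p)) (l := 1) ?_ hl).symm
        exact (Matrix.one_mulVec _).trans (one_smul _ _).symm
      map_mul' := fun g h => funext fun p => by
        obtain ⟨l1, hl1⟩ := (exists_line h p).choose_spec
        obtain ⟨l2, hl2⟩ := (exists_line g (exists_line h p).choose).choose_spec
        obtain ⟨l, hl⟩ := (exists_line (g * h) p).choose_spec
        refine pv_unique (SU_mulVec_ne_zero (g * h) (pv_ne p)) hl (m := l1 * l2) ?_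
        exact (((Matrix.mulVec_mulVec (pv p) (smat g) (smat h)).symm.trans (congrArg (smat g *ᵥ ·) hl1)).trans
          (Matrix.mulVec_smul _ l1 _)).trans ((congrArg (l1 • ·) hl2).trans (smul_smul _ _ _)) }

theorem center_le_ker : Subgroup.center (Cfsg.SU 6 Q 2) ≤ sigU.ker := by
  intro A hA
  refine MonoidHom.mem_ker.2 (Equiv.ext fun p => ?_)
  haveI : Fact (Nonempty (Conj Q 2)) := ⟨⟨conjQ⟩⟩
  have hfix := fix_of_mem_center conjQ (by norm_num) A hA (isoPt conjQ (pv_ne p) (pv_iso p))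
  rw [smul_isoPt, isoPt_eq_iff] at hfix
  obtain ⟨c, hc⟩ := hfix
  obtain ⟨l, hl⟩ := (exists_line A p).choose_spec
  exact pv_unique (SU_mulVec_ne_zero A (pv_ne p)) hl hc.symm

theorem tvec_iso (k : Fin 8) : Cfsg.hermForm 6 Q 2 (dv (tcode k)) (dv (tcode k)) = 0 := by
  rw [hermForm_dv]
  exact beq_iff_eq.1 (allIn_get (p := fun k => herm (dig (tcode k)) (dig (tcode k)) == Q.z) tvec_ok k.2)

/-- A transvection. -/
noncomputable def trv (k : Fin 8) : Cfsg.SU 6 Q 2 :=
  utv conjQ (dv (tcode k)) 1 (tvec_iso k) (by rw [map_one]; rfl)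

theorem sigU_trv (k : Fin 8) (p : Fin 693) : (sigU (trv k) p).val = vidx (tmove k (vcode p)) := by
  obtain ⟨l, hl⟩ := (exists_line (trv k) p).choose_spec
  show (exists_line (trv k) p).choose.val = _
  rw [← vidx_smul (SU_mulVec_ne_zero (trv k) (pv_ne p)) hl]
  congr 1
  refine encV_ext fun j hj => ?_
  rw [dif_pos hj, trv, utv_mulVec, one_mul, pv, hermForm_dv]
  rfl

theorem center_PSU : Subgroup.center (Cfsg.PSU 6 Q 2) = ⊥ ∧ Nat.card (Cfsg.PSU 6 Q 2) = 9196830720 := by
  have hc : Nat.card (Cfsg.PSU 6 Q 2) = 9196830720 := by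
    have h := card_PSU conjQ (show 2 ≤ 6 by norm_num)
    simp [Finset.prod_range_succ, Nat.even_iff] at h
    omega
  haveI := isSimpleGroup_PSU conjQ (show 3 ≤ 6 by norm_num) (by norm_num : ¬ ((6 : ℕ) = 3 ∧ (2 : ℕ) = 2))
  refine ⟨((inferInstance : (Subgroup.center (Cfsg.PSU 6 Q 2)).Normal).eq_bot_or_eq_top).resolve_right ?_, hc⟩
  intro htop
  letI : CommGroup (Cfsg.PSU 6 Q 2) := Group.commGroupOfCenterEqTop htop
  have hp : (Nat.card (Cfsg.PSU 6 Q 2)).Prime := IsSimpleGroup.prime_card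
  rw [hc] at hp
  norm_num at hp

end CfsgLib.FiTwoTwoU62
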