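import Cfsg.Agent.FiTwoTwoU62.Checks
import Cfsg.Agent.FiTwoTwoU62.Lines

/-!
The transvections induce the permutations of the generators.
-/

set_option autoImplicit false
set_option maxRecDepth 100000
set_option Elab.async false

namespace CfsgLib.FiTwoTwoU62

open H29.CosetCert

theorem act_ok : allIn (fun k => allIn (fun q => Nat.beq (vidx (tmove k (vcode q))) (img (k + 1) q)) 0 693) 0 8 = true := by
  decide +kernel

end CfsgLib.FiTwoTwoU62
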