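import Cfsg.Agent.H29.CosetCert.Fi22.Cert
import Cfsg.Agent.FiTwoTwoU62.Data

/-!
Kernel checks on the table of `Fi₂₂` for the centraliser of a transposition.
-/

set_option autoImplicit false
set_option maxRecDepth 100000
set_option Elab.async false

namespace CfsgLib.FiTwoTwoU62

open H29.CosetCert

/-- The word of a generator of the subgroup. -/
def sw (i : ℕ) : List ℕ := (Fi22Data.S.getD i []).reverse
/-- A point of the orbit of 693. -/
def pt (q : ℕ) : ℕ := pick Data.ptT q
/-- The number of a point. -/
def ptInv (x : ℕ) : ℕ := pick Data.invT x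
/-- A permutation of the orbit. -/
def img (i q : ℕ) : ℕ := pick Data.imgT (693 * i + q)
/-- A representative of a pair. -/
def srt (n : ℕ) : ℕ := pick Data.srtT n
/-- The rank of a pair. -/
def rnk (x : ℕ) : ℕ := pick Data.rankT x
/-- A sorted code. -/
def cde (n : ℕ) : ℕ := factAt Data.codeT n
/-- A fixed point separating a pair. -/
def which (x : ℕ) : ℕ := pick Data.whichT x

/-- A bit of the code of a point. -/
def probeBit (w : List ℕ) (x : ℕ) : Bool := Fi22Data.orb2.testBit (runR Fi22Data.T w.reverse x)

/-- The code of a point. -/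
def sepCode (x : ℕ) : ℕ := Data.probes.foldr (fun w r => (bif probeBit w x then 1 else 0) + 2 * r) 0

/-- The word of a successively fixed point. -/
def cword (j : ℕ) : List ℕ := (Data.chain.getD j ([], 0)).1

/-- The other point of a pair. -/
def mate (x : ℕ) : ℕ := Fi22Data.T 0 x

/-- In the orbit of 2816. -/
def inPairs (x : ℕ) : Bool := !(Nat.beq x 0) && !(Fi22Data.orb2.testBit x)

/-- The relations, in the numbering of the nine generators of the subgroup. -/
def rels : List (List ℕ) :=
  [[1, 2, 1, 2, 1, 2], [2, 3, 2, 3, 2, 3], [3, 4, 3, 4, 3, 4], [4, 5, 4, 5, 4, 5], [2, 6, 2, 6, 2, 6],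
    [6, 7, 6, 7, 6, 7], [8, 4, 8, 4, 8, 4],
    (List.replicate 9 [1, 2, 3, 4, 5, 6, 7]).flatten]

/-- A word for the central generator. -/
def rootWord : List ℕ := (List.replicate 5 [8, 2, 1, 4, 6, 3]).flatten

/-- Two words act alike on the table. -/
def sameOn (u v : List ℕ) : Bool :=
  allIn (fun x => Nat.beq (runR Fi22Data.T u x) (runR Fi22Data.T v x)) 0 3510

theorem pt_ok : allIn (fun q => Nat.blt (pt q) 3510 && Nat.beq (ptInv (pt q)) q &&
    Fi22Data.orb2.testBit (pt q)) 0 693 = true := by decide +kernel

theorem set_ok : allIn (fun x => bif Fi22Data.orb2.testBit x then Nat.blt (ptInv x) 693 && Nat.beq (pt (ptInv x)) x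
    else true) 0 3510 = true := by decide +kernel

theorem img_ok : allIn (fun i => allIn (fun q => Nat.blt (img i q) 693 &&
    Nat.beq (runR Fi22Data.T (sw i) (pt q)) (pt (img i q)) && Nat.beq (img i (img i q)) q) 0 693) 0 9 = true := by
  decide +kernel

theorem central_img : allIn (fun q => Nat.beq (img 0 q) q) 0 693 = true := by decide +kernel

theorem probes_ok : (Data.probes.all fun w => Fi22Data.orb2.testBit (runR Fi22Data.T w 0)) = true := by decide +kernel

theorem pair_ok : allIn (fun x => bif inPairs x then Nat.blt (rnk x) 1408 &&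
    (Nat.beq (srt (rnk x)) x || Nat.beq (srt (rnk x)) (mate x)) && Nat.beq (sepCode x) (cde (rnk x)) &&
    Nat.blt (which x) Data.chain.length &&
    !(probeBit (cword (which x)) x == probeBit (cword (which x)) (mate x)) else true) 0 3510 = true := by
  decide +kernel

theorem code_sorted : allIn (fun n => Nat.beq n 1407 || Nat.blt (cde n) (cde (n + 1))) 0 1408 = true := by
  decide +kernel

theorem chain_ok : allIn (fun j => inPairs (runR Fi22Data.T (cword j) 0) &&
    (Nat.beq j 0 || (Nat.blt (Data.chain.getD j ([], 0)).2 j &&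
      !(probeBit (cword (Data.chain.getD j ([], 0)).2) (runR Fi22Data.T (cword j) 0) ==
        probeBit (cword (Data.chain.getD j ([], 0)).2) (mate (runR Fi22Data.T (cword j) 0)))))) 0 Data.chain.length =
    true := by decide +kernel

theorem chain_pos : 0 < Data.chain.length := by decide +kernel

theorem central_ok : allIn (fun i => sameOn (0 :: sw i) (sw i ++ [0])) 0 9 = true := by decide +kernel

theorem central_word : sw 0 = [0] ∧ Fi22Data.T 0 0 = 0 := by decide +kernel

theorem rels_ok : (rels.all fun r => sameOn (r.flatMap sw) []) = true := by decide +kernel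

theorem root_ok : sameOn (rootWord.flatMap sw) (sw 0) = true := by decide +kernel

theorem s_len : Fi22Data.S.length = 9 := by decide +kernel

end CfsgLib.FiTwoTwoU62
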