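import Cfsg.Agent.FiTwoTwoU62.Act
import Cfsg.Agent.H29.CosetCert.Fi22Order.Cert
import Cfsg.Prelude.Def_SporadicB

/-!
The subgroup `C(a)` of the presented group `Fi₂₂` is a non-split double cover of `PSU₆(2)`.
-/

set_option autoImplicit false
set_option maxRecDepth 100000
set_option Elab.async false

namespace CfsgLib.FiTwoTwoU62

open H29.CosetCert CfsgLib.G2Four CfsgLib.UGeom Matrix

open H29.CosetCert.Fi22Cert (cert g H)

attribute [local irreducible] pt ptInv img srt rnk cde which pick factAt vcode vidx tcode sepCode probeBit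

/-- The presented group. -/
abbrev Fi : Type := Cfsg.Spor.Fi22

/-- A table point. -/
noncomputable def pr (h : Fi) (c : Fin 3510) : Fin 3510 := cert.ρ h c

theorem pr_mul (a b : Fi) (c : Fin 3510) : pr (a * b) c = pr a (pr b c) :=
  DFunLike.congr_fun (map_mul cert.ρ a b) c

theorem pr_one (c : Fin 3510) : pr 1 c = c := DFunLike.congr_fun (map_one cert.ρ) c

theorem pr_word (w : List ℕ) (c : Fin 3510) : (pr (w.map g).prod c).val = runR Fi22Data.T w c.val :=
  Cert.prod_ρ_val cert w c

theorem pr_injective (h : Fi) : Function.Injective (pr h) := (cert.ρ h).injective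

theorem pr_ext {a b : Fi} (h : ∀ c, pr a c = pr b c) : a = b :=
  H29.CosetCert.Fi22Ord.injective_card.1 (Equiv.ext h)

theorem word_eq {u v : List ℕ} (h : sameOn u v = true) : (u.map g).prod = (v.map g).prod :=
  pr_ext fun c => Fin.ext (by rw [pr_word, pr_word]; exact Nat.eq_of_beq_eq_true (allIn_get (p := fun x => Nat.beq (runR Fi22Data.T u x) (runR Fi22Data.T v x)) h c.2))

theorem allIn_get2 {p : ℕ → ℕ → Bool} {n m i j : ℕ} (h : allIn (fun i => allIn (p i) 0 n) 0 m = true) (hi : i < m)
    (hj : j < n) : p i j = true :=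
  (allIn_iff (p i) n 0).1 ((allIn_iff _ m 0).1 h i (Nat.zero_le _) (by omega)) j (Nat.zero_le _) (by omega)

theorem gen_mem (i : Fin 9) : ((sw i).map g).prod ∈ H := by
  refine Subgroup.subset_closure (List.mem_map.2 ⟨Fi22Data.S.getD i [], ?_, rfl⟩)
  rw [List.getD_eq_getElem _ _ (by rw [s_len]; exact i.2)]
  exact List.getElem_mem _

theorem H_closure : H = Subgroup.closure (Set.range fun i : Fin 9 => ((sw i).map g).prod) := by
  refine le_antisymm ?_ ((Subgroup.closure_le _).2 (by rintro _ ⟨i, rfl⟩; exact gen_mem i))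
  refine (Subgroup.closure_le _).2 fun e he => ?_
  simp only [Set.mem_setOf_eq, List.mem_map] at he
  obtain ⟨r, hr, rfl⟩ := he
  obtain ⟨i, hi, rfl⟩ := List.mem_iff_getElem.1 hr
  refine Subgroup.subset_closure ⟨⟨i, by rw [← s_len]; exact hi⟩, ?_⟩
  show ((sw i).map g).prod = _
  rw [sw, List.getD_eq_getElem _ _ hi]

theorem pt_spec (q : Fin 693) : pt q < 3510 ∧ ptInv (pt q) = q ∧ Fi22Data.orb2.testBit (pt q) = true := by
  have h := allIn_get pt_ok q.2
  simp only [Bool.and_eq_true, Nat.blt_eq, Nat.beq_eq] at h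
  exact ⟨h.1.1, h.1.2, h.2⟩

/-- A point of the orbit. -/
def ptF (q : Fin 693) : Fin 3510 := ⟨pt q, (pt_spec q).1⟩

theorem ptF_injective : Function.Injective ptF := fun a b h => by
  refine Fin.ext ?_
  rw [← (pt_spec a).2.1, ← (pt_spec b).2.1]
  exact congrArg ptInv (congrArg Fin.val h)

theorem ptF_surj {x : Fin 3510} (hx : Fi22Data.orb2.testBit x.val = true) : ∃ q, ptF q = x := by
  have h := allIn_get set_ok x.2
  rw [hx, cond_true] at h
  simp only [Bool.and_eq_true, Nat.blt_eq, Nat.beq_eq] at h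
  exact ⟨⟨_, h.1⟩, Fin.ext h.2⟩

theorem img_spec (i : Fin 9) (q : Fin 693) :
    img i q < 693 ∧ runR Fi22Data.T (sw i) (pt q) = pt (img i q) ∧ img i (img i q) = q := by
  have h := allIn_get2 (p := fun i q => Nat.blt (img i q) 693 &&
    Nat.beq (runR Fi22Data.T (sw i) (pt q)) (pt (img i q)) && Nat.beq (img i (img i q)) q) img_ok i.2 q.2
  simp only [Bool.and_eq_true, Nat.blt_eq, Nat.beq_eq] at h
  exact ⟨h.1.1, h.1.2, h.2⟩

/-- The permutation of a generator. -/
def gperm (i : Fin 9) : Equiv.Perm (Fin 693) :=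
  ⟨fun q => ⟨img i q, (img_spec i q).1⟩, fun q => ⟨img i q, (img_spec i q).1⟩,
    fun q => Fin.ext (img_spec i q).2.2, fun q => Fin.ext (img_spec i q).2.2⟩

theorem gperm_val (i : Fin 9) (q : Fin 693) : (gperm i q).val = img i q := by
  simp only [gperm, Equiv.coe_fn_mk]

theorem gen_maps (i : Fin 9) (q : Fin 693) : pr ((sw i).map g).prod (ptF q) = ptF (gperm i q) := by
  refine Fin.ext ((pr_word _ _).trans ?_)
  show runR Fi22Data.T (sw i) (pt q) = pt (gperm i q).val
  rw [gperm_val]
  exact (img_spec i q).2.1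

/-- The orbit is permuted. -/
def Perms (h : Fi) : Prop := ∃ π : Equiv.Perm (Fin 693), ∀ q, pr h (ptF q) = ptF (π q)

theorem perms_of_mem {h : Fi} (hh : h ∈ H) : Perms h := by
  rw [H_closure] at hh
  induction hh using Subgroup.closure_induction with
  | mem e he =>
    obtain ⟨i, rfl⟩ := he
    exact ⟨gperm i, gen_maps i⟩
  | one => exact ⟨1, fun q => pr_one _⟩
  | mul a b _ _ ha hb =>
    obtain ⟨π, hπ⟩ := ha
    obtain ⟨σ, hσ⟩ := hb
    exact ⟨π * σ, fun q => by rw [pr_mul, hσ, hπ]; rfl⟩
  | inv a _ ha =>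
    obtain ⟨π, hπ⟩ := ha
    refine ⟨π⁻¹, fun q => pr_injective a ?_⟩
    rw [← pr_mul, mul_inv_cancel, pr_one, hπ, Equiv.Perm.coe_inv, Equiv.apply_symm_apply]

/-- The action of the subgroup on the orbit. -/
noncomputable def sigH : H →* Equiv.Perm (Fin 693) :=
  MonoidHom.mk' (fun h => (perms_of_mem h.2).choose) fun a b => Equiv.ext fun q => ptF_injective <| by
    rw [← (perms_of_mem (a * b).2).choose_spec q, Subgroup.coe_mul, pr_mul, (perms_of_mem b.2).choose_spec q,
      (perms_of_mem a.2).choose_spec]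
    rfl

theorem sigH_spec (h : H) (q : Fin 693) : pr h (ptF q) = ptF (sigH h q) := (perms_of_mem h.2).choose_spec q

/-- A generator. -/
noncomputable def gen (i : Fin 9) : H := ⟨((sw i).map g).prod, gen_mem i⟩

theorem sigH_gen (i : Fin 9) : sigH (gen i) = gperm i :=
  Equiv.ext fun q => ptF_injective (((sigH_spec (gen i) q).symm).trans (gen_maps i q))

/-- The central involution. -/
noncomputable abbrev za : H := gen 0

theorem za_val : (za : Fi) = g 0 := by
  show ((sw ((0 : Fin 9) : ℕ)).map g).prod = _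
  rw [show sw ((0 : Fin 9) : ℕ) = [0] from central_word.1]
  simp

theorem za_sq : za * za = 1 := Subtype.ext (by rw [Subgroup.coe_mul, za_val]; exact cert.g_sq 0)

theorem za_comm (h : H) : za * h = h * za := by
  refine Subtype.ext ?_
  rw [Subgroup.coe_mul, Subgroup.coe_mul, za_val]
  have key : ∀ x ∈ H, g 0 * x = x * g 0 := by
    intro x hx
    rw [H_closure] at hx
    induction hx using Subgroup.closure_induction with
    | mem e he =>
      obtain ⟨i, rfl⟩ := he
      have := word_eq (allIn_get (p := fun i => sameOn (0 :: sw i) (sw i ++ [0])) central_ok i.2)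
      simpa [List.prod_append] using this
    | one => simp
    | mul a b _ _ ha hb => rw [← mul_assoc, ha, mul_assoc, hb, mul_assoc]
    | inv a _ ha => exact ((show Commute (g 0) a from ha).inv_right).eq
  exact key h h.2

theorem sigH_za : sigH za = 1 := by
  rw [sigH_gen]
  exact Equiv.ext fun q => Fin.ext (by
    rw [gperm_val]; exact Nat.eq_of_beq_eq_true (allIn_get (p := fun q => Nat.beq (img 0 q) q) central_img q.2))

theorem mem_of_fix {y : Fi} (h : pr y ⟨0, by norm_num⟩ = ⟨0, by norm_num⟩) : y ∈ H := by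
  have h1 : cert.toPt (y : Fi ⧸ H) = cert.toPt ((1 : Fi) : Fi ⧸ H) := by
    rw [Cert.toPt_mk, Cert.toPt_mk, map_one, Equiv.Perm.one_apply]
    exact h
  have h2 := Function.LeftInverse.injective cert.ofPt_toPt h1
  rw [QuotientGroup.eq, mul_one] at h2
  exact inv_inv y ▸ inv_mem h2

theorem fix_zero (k : H) : pr k ⟨0, by norm_num⟩ = ⟨0, by norm_num⟩ := Cert.fix_base cert k.2

theorem orb_maps {y : Fi} (hy : y ∈ H) (x : Fin 3510) :
    Fi22Data.orb2.testBit (pr y x).val = Fi22Data.orb2.testBit x.val := by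
  have key : ∀ y : Fi, y ∈ H → ∀ x : Fin 3510, Fi22Data.orb2.testBit x.val = true →
      Fi22Data.orb2.testBit (pr y x).val = true := by
    intro y hy x hx
    obtain ⟨q, rfl⟩ := ptF_surj hx
    obtain ⟨π, hπ⟩ := perms_of_mem hy
    rw [hπ]
    exact (pt_spec (π q)).2.2
  rw [Bool.eq_iff_iff]
  refine ⟨fun hx => ?_, key y hy x⟩
  have := key _ (inv_mem hy) _ hx
  rwa [← pr_mul, inv_mul_cancel, pr_one] at this

theorem rev_prod : ∀ w : List ℕ, (w.reverse.map g).prod * (w.map g).prod = 1
  | [] => by simp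
  | x :: w => by
    rw [List.reverse_cons, List.map_append, List.prod_append, List.map_cons, List.prod_cons]
    simp only [List.map_cons, List.map_nil, List.prod_cons, List.prod_nil, mul_one]
    rw [mul_assoc, ← mul_assoc (g x) (g x), show g x * g x = 1 from cert.g_sq x, one_mul, rev_prod w]

theorem bit_eq {k : Fi} {w : List ℕ} (hfix : pr k (pr (w.map g).prod ⟨0, by norm_num⟩) =
    pr (w.map g).prod ⟨0, by norm_num⟩) (x : Fin 3510) : probeBit w (pr k x).val = probeBit w x.val := by
  set gw := (w.map g).prod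
  set gi := (w.reverse.map g).prod
  have hgi : gi * gw = 1 := rev_prod w
  have hmem : gi * k * gw ∈ H := mem_of_fix (by rw [pr_mul, pr_mul, hfix, ← pr_mul, hgi, pr_one])
  unfold probeBit
  rw [← pr_word w.reverse, ← pr_word w.reverse]
  rw [show pr gi (pr k x) = pr (gi * k * gw) (pr gi x) by
    rw [← pr_mul, ← pr_mul]
    congr 1
    rw [mul_assoc _ gw gi, mul_eq_one_comm.1 hgi, mul_one]]
  exact orb_maps hmem _

theorem pair_spec {x : Fin 3510} (hx : inPairs x = true) : rnk x < 1408 ∧ (srt (rnk x) = x ∨ srt (rnk x) = mate x) ∧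
    sepCode x = cde (rnk x) ∧ which x < Data.chain.length ∧
    probeBit (cword (which x)) x ≠ probeBit (cword (which x)) (mate x) := by
  have h := allIn_get pair_ok x.2
  rw [hx, cond_true] at h
  simp only [Bool.and_eq_true, Bool.or_eq_true, Nat.blt_eq, Nat.beq_eq, Bool.not_eq_true', beq_eq_false_iff_ne] at h
  exact ⟨h.1.1.1.1, h.1.1.1.2, h.1.1.2, h.1.2, h.2⟩

theorem za_mate (x : Fin 3510) : (pr za x).val = mate x.val := by
  rw [za_val]
  have h := pr_word [0] x
  simp only [List.map_cons, List.map_nil, List.prod_cons, List.prod_nil, mul_one] at h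
  rw [h, runR_cons]
  rfl

theorem mate_mate (x : Fin 3510) : mate (pr za x).val = x.val := by
  rw [← za_mate, ← pr_mul, ← Subgroup.coe_mul, za_sq, OneMemClass.coe_one, pr_one]

theorem inPairs_iff (x : Fin 3510) : inPairs x = true ↔ x ≠ ⟨0, by norm_num⟩ ∧ Fi22Data.orb2.testBit x.val = false := by
  unfold inPairs
  generalize Fi22Data.orb2.testBit x.val = t
  rw [ne_eq, Fin.ext_iff]
  show _ ↔ ¬ x.val = 0 ∧ t = false
  cases hb : Nat.beq x.val 0
  · have : x.val ≠ 0 := fun e => by rw [e] at hb; exact Bool.noConfusion hb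
    cases t <;> simp [this]
  · simp [Nat.eq_of_beq_eq_true hb]

theorem pr_pairs (k : H) {x : Fin 3510} (hx : inPairs x = true) : inPairs (pr k x) = true := by
  rw [inPairs_iff] at hx ⊢
  refine ⟨fun e => hx.1 (pr_injective k (e.trans (fix_zero k).symm)), ?_⟩
  rw [orb_maps k.2]
  exact hx.2

theorem pair_fix {k : H} (hk : sigH k = 1) {x : Fin 3510} (hx : inPairs x = true) :
    pr k x = x ∨ pr k x = pr za x := by
  have horb : ∀ y : Fin 3510, Fi22Data.orb2.testBit y.val = true → pr k y = y := by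
    intro y hy
    obtain ⟨q, rfl⟩ := ptF_surj hy
    rw [sigH_spec, hk, Equiv.Perm.one_apply]
  have hcode : sepCode (pr k x).val = sepCode x.val := by
    unfold sepCode
    have hw := List.all_eq_true.1 probes_ok
    generalize hP : Data.probes = P at hw ⊢
    clear hP
    induction P with
    | nil => rfl
    | cons w P ih =>
      rw [List.foldr_cons, List.foldr_cons, ih fun v hv => hw v (List.mem_cons_of_mem _ hv)]
      rw [bit_eq (horb _ (by rw [pr_word]; exact hw w List.mem_cons_self)) x]
  have hy := pr_pairs k hx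
  obtain ⟨hr, hs, hc, -, -⟩ := pair_spec hx
  obtain ⟨hr', hs', hc', -, -⟩ := pair_spec hy
  have hmono : StrictMonoOn cde (Set.Iio 1408) := by
    refine strictMonoOn_of_lt_succ Set.ordConnected_Iio ?_
    intro n _ hn hn'
    rw [Nat.succ_eq_succ, Set.mem_Iio] at hn'
    have h := allIn_get code_sorted (Set.mem_Iio.1 hn)
    simp only [Bool.or_eq_true, Nat.beq_eq, Nat.blt_eq] at h
    exact h.resolve_left (by omega)
  have he := hmono.injOn (Set.mem_Iio.2 hr') (Set.mem_Iio.2 hr) (by rw [← hc, ← hc', hcode])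
  rw [he] at hs'
  have hm : ∀ z : Fin 3510, mate (mate z.val) = z.val := fun z => by rw [← za_mate, mate_mate]
  rcases hs with hs | hs <;> rcases hs' with hs' | hs' <;> rw [hs] at hs'
  · exact Or.inl (Fin.ext hs'.symm)
  · exact Or.inr (Fin.ext (by rw [za_mate, hs', hm]))
  · exact Or.inr (Fin.ext (by rw [za_mate, hs']))
  · exact Or.inl (Fin.ext (by rw [← hm (pr k x), ← hs', hm]))

theorem eq_one_of_fix {k : H} (hk : sigH k = 1)
    (h0 : pr k (pr ((cword 0).map g).prod ⟨0, by norm_num⟩) = pr ((cword 0).map g).prod ⟨0, by norm_num⟩) :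
    k = 1 := by
  have step : ∀ (w : List ℕ) (x : Fin 3510), pr k (pr (w.map g).prod ⟨0, by norm_num⟩) = pr (w.map g).prod ⟨0, by norm_num⟩ →
      inPairs x = true → probeBit w x.val ≠ probeBit w (mate x.val) → pr k x = x := by
    intro w x hw hx hne
    refine (pair_fix hk hx).resolve_right fun e => hne ?_
    have := bit_eq hw x
    rw [e, za_mate] at this
    exact this.symm
  have hchain : ∀ j, j < Data.chain.length →
      pr k (pr ((cword j).map g).prod ⟨0, by norm_num⟩) = pr ((cword j).map g).prod ⟨0, by norm_num⟩ := by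
    intro j
    induction j using Nat.strong_induction_on with
    | _ j ih =>
      intro hj
      have h := allIn_get chain_ok hj
      simp only [Bool.and_eq_true, Bool.or_eq_true, Nat.blt_eq, Nat.beq_eq, Bool.not_eq_true',
        beq_eq_false_iff_ne] at h
      rcases h.2 with e | ⟨hlt, hne⟩
      · rw [e]; exact h0
      · refine step _ _ (ih _ hlt (hlt.trans hj)) (by rw [pr_word]; exact h.1) ?_
        rw [pr_word]
        exact hne
  refine Subtype.ext (pr_ext fun x => ?_)
  rw [OneMemClass.coe_one, pr_one]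
  by_cases h1 : Fi22Data.orb2.testBit x.val = true
  · obtain ⟨q, rfl⟩ := ptF_surj h1
    rw [sigH_spec, hk, Equiv.Perm.one_apply]
  by_cases h2 : x = ⟨0, by norm_num⟩
  · rw [h2]; exact fix_zero k
  have hx : inPairs x = true := (inPairs_iff x).2 ⟨h2, Bool.eq_false_iff.2 h1⟩
  obtain ⟨-, -, -, hw, hne⟩ := pair_spec hx
  exact step _ x (hchain _ hw) hx hne

theorem ker_eq : sigH.ker = Subgroup.zpowers za := by
  refine le_antisymm (fun k hk => ?_) (Subgroup.zpowers_le.2 sigH_za)
  rw [MonoidHom.mem_ker] at hk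
  set x0 := pr ((cword 0).map g).prod ⟨0, by norm_num⟩
  have hx0 : inPairs x0 = true := by
    have h := allIn_get chain_ok chain_pos
    simp only [Bool.and_eq_true] at h
    rw [pr_word]
    exact h.1
  rcases pair_fix hk hx0 with e | e
  · rw [eq_one_of_fix hk e]; exact one_mem _
  · have h1 : za * k = 1 := eq_one_of_fix (by rw [map_mul, hk, sigH_za, one_mul]) (by
      rw [Subgroup.coe_mul, pr_mul, e, ← pr_mul, ← Subgroup.coe_mul, za_sq, OneMemClass.coe_one, pr_one])
    rw [show k = za⁻¹ from eq_inv_of_mul_eq_one_right h1]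
    exact inv_mem (Subgroup.mem_zpowers za)

theorem card_ker : Nat.card sigH.ker = 2 := by
  rw [ker_eq, Nat.card_zpowers]
  refine orderOf_eq_prime (by rw [pow_two, za_sq]) fun h => ?_
  have hx0 : inPairs (pr ((cword 0).map g).prod ⟨0, by norm_num⟩) = true := by
    have h := allIn_get chain_ok chain_pos
    simp only [Bool.and_eq_true] at h
    rw [pr_word]
    exact h.1
  obtain ⟨-, -, -, -, hne⟩ := pair_spec hx0
  refine hne ?_
  rw [← za_mate, h, OneMemClass.coe_one, pr_one]

theorem card_H : Nat.card H = 18393661440 := by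
  have h := H.card_mul_index
  rw [cert.index_eq, show cert.n = 3510 from rfl, H29.CosetCert.Fi22Ord.injective_card.2] at h
  exact Nat.eq_of_mul_eq_mul_right (show 0 < 3510 by norm_num) (h.trans (by norm_num))

theorem gperm_mem (i : Fin 9) : gperm i ∈ sigU.range := by
  rcases Fin.eq_zero_or_eq_succ i with rfl | ⟨k, rfl⟩
  · rw [← sigH_gen, sigH_za]; exact one_mem _
  · refine ⟨trv k, Equiv.ext fun q => Fin.ext ?_⟩
    rw [sigU_trv, gperm_val]
    exact Nat.eq_of_beq_eq_true
      (allIn_get2 (p := fun k q => Nat.beq (vidx (tmove k (vcode q))) (img (k + 1) q)) act_ok k.2 q.2)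

theorem quotient_iso : Nonempty (H ⧸ sigH.ker ≃* Cfsg.PSU 6 Q 2) := by
  haveI : Finite (Cfsg.PSU 6 Q 2) := Nat.finite_of_card_ne_zero (by rw [center_PSU.2]; norm_num)
  let τ : Cfsg.PSU 6 Q 2 →* Equiv.Perm (Fin 693) := QuotientGroup.lift _ sigU center_le_ker
  have hτ : τ.range = sigU.range := by
    refine le_antisymm ?_ ?_
    · rintro _ ⟨x, rfl⟩
      obtain ⟨A, rfl⟩ := QuotientGroup.mk_surjective x
      exact ⟨A, rfl⟩
    · rintro _ ⟨A, rfl⟩
      exact ⟨QuotientGroup.mk A, rfl⟩
  have hle : sigH.range ≤ τ.range := by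
    rw [hτ]
    rintro _ ⟨⟨h, hh⟩, rfl⟩
    have key : H ≤ (sigU.range.comap sigH).map H.subtype := by
      intro z hz
      have hz' : z ∈ Subgroup.closure (Set.range fun i : Fin 9 => ((sw i).map g).prod) := H_closure ▸ hz
      refine (Subgroup.closure_le _).2 ?_ hz'
      rintro _ ⟨i, rfl⟩
      exact ⟨gen i, Subgroup.mem_comap.2 (by rw [sigH_gen]; exact gperm_mem i), rfl⟩
    obtain ⟨y, hy, e⟩ := key hh
    rw [← show y = ⟨h, hh⟩ from Subtype.ext e]
    exact hy
  have hB : Nat.card sigH.range = 9196830720 := by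
    have h := sigH.ker.card_mul_index
    rw [Subgroup.index_ker, card_ker, card_H] at h
    omega
  have hA : Nat.card τ.range ≤ 9196830720 :=
    center_PSU.2 ▸ Nat.card_le_card_of_surjective _ τ.rangeRestrict_surjective
  have heq := Subgroup.eq_of_le_of_card_ge hle (hA.trans hB.ge)
  have hbij : Function.Bijective τ.rangeRestrict := (Nat.bijective_iff_surjective_and_card _).2
    ⟨τ.rangeRestrict_surjective, by rw [← heq, hB, center_PSU.2]⟩
  exact ⟨(QuotientGroup.quotientKerEquivRange sigH).trans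
    ((MulEquiv.subgroupCongr heq).trans (MulEquiv.ofBijective _ hbij).symm)⟩

theorem center_eq : Subgroup.center H = sigH.ker := by
  refine le_antisymm (fun x hx => ?_) ?_
  · obtain ⟨e⟩ := quotient_iso
    have h1 : e (QuotientGroup.mk x) ∈ Subgroup.center (Cfsg.PSU 6 Q 2) := by
      rw [Subgroup.mem_center_iff]
      intro y
      obtain ⟨y, rfl⟩ := e.surjective y
      obtain ⟨y, rfl⟩ := QuotientGroup.mk_surjective y
      rw [← map_mul, ← map_mul, ← QuotientGroup.mk_mul, ← QuotientGroup.mk_mul, Subgroup.mem_center_iff.1 hx]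
    rw [center_PSU.1, Subgroup.mem_bot, ← map_one e] at h1
    exact (QuotientGroup.eq_one_iff x).1 (e.injective h1)
  · rw [ker_eq]
    exact Subgroup.zpowers_le.2 (Subgroup.mem_center_iff.2 fun h => (za_comm h).symm)

/-- The parity of a word of generators. -/
def par (b : Fin 9 → Bool) (l : List ℕ) : Bool :=
  l.foldr (fun i r => if h : i < 9 then b ⟨i, h⟩ == r else r) true

theorem par_check : ∀ b : Fin 9 → Bool, (rels.all fun r => par b r) = true → par b rootWord = b 0 → b 0 = true := by
  decide +kernel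

theorem rels_lt : (rels.all fun r => r.all fun i => Nat.blt i 9) = true ∧
    (rootWord.all fun i => Nat.blt i 9) = true := by decide +kernel

theorem za_mem_of_index_two (L : Subgroup H) (hL : L.index = 2) : za ∈ L := by
  classical
  set b : Fin 9 → Bool := fun i => decide (gen i ∈ L)
  have hb : ∀ l : List ℕ, (∀ i ∈ l, i < 9) → ∃ y : H, (y : Fi) = ((l.flatMap sw).map g).prod ∧
      (par b l = true ↔ y ∈ L) := by
    intro l
    induction l with
    | nil => exact fun _ => ⟨1, by simp, by simp [par]⟩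
    | cons i l ih =>
      intro h
      obtain ⟨y, hy, hm⟩ := ih fun j hj => h j (List.mem_cons_of_mem _ hj)
      have hi := h i List.mem_cons_self
      refine ⟨gen ⟨i, hi⟩ * y, ?_, ?_⟩
      · rw [Subgroup.coe_mul, hy, List.flatMap_cons, List.map_append, List.prod_append]
        rfl
      · rw [Subgroup.mul_mem_iff_of_index_two hL, ← hm]
        simp only [par, List.foldr_cons, dif_pos hi, beq_iff_eq, b]
        rw [Bool.eq_iff_iff, decide_eq_true_iff]
  have h1 : (rels.all fun r => par b r) = true := by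
    rw [List.all_eq_true]
    intro r hr
    obtain ⟨y, hy, hm⟩ := hb r fun i hi => by
      have := List.all_eq_true.1 (List.all_eq_true.1 rels_lt.1 r hr) i hi
      rwa [Nat.blt_eq] at this
    rw [hm, show y = 1 from Subtype.ext (by rw [hy, word_eq (List.all_eq_true.1 rels_ok r hr)]; simp)]
    exact one_mem L
  have h2 : par b rootWord = b 0 := by
    obtain ⟨y, hy, hm⟩ := hb rootWord fun i hi => by
      have := List.all_eq_true.1 rels_lt.2 i hi
      rwa [Nat.blt_eq] at this
    rw [Bool.eq_iff_iff, hm, show y = za from Subtype.ext (by rw [hy, word_eq root_ok]; rfl), decide_eq_true_iff]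
  simpa [b] using par_check b h1 h2

theorem double_cover : Cfsg.IsNonsplitDoubleCover H (Cfsg.PSU 6 Q 2) := by
  have hc : Nat.card (Subgroup.center H) = 2 := by rw [center_eq, card_ker]
  obtain ⟨e⟩ := quotient_iso
  refine ⟨hc, ⟨(QuotientGroup.quotientMulEquivOfEq center_eq).trans e⟩, fun L hL => ?_⟩
  have hz : za ∈ L := za_mem_of_index_two L (by rw [hL.index_eq_card, hc])
  have hzc : za ∈ Subgroup.center H := by rw [center_eq]; exact sigH_za
  have h1 : za = 1 := Subgroup.mem_bot.1 (hL.disjoint.le_bot ⟨hzc, hz⟩)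
  have h2 := card_ker
  rw [ker_eq, h1, Subgroup.zpowers_one_eq_bot, Subgroup.card_bot] at h2
  exact absurd h2 (by norm_num)

end CfsgLib.FiTwoTwoU62
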