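import Cfsg.Agent.FiTwoTwoU62.Main

/-!
The conjugates of `a` form a class of 3-transpositions of the presented group `Fi₂₂`.
-/

set_option autoImplicit false
set_option maxRecDepth 100000
set_option Elab.async false

namespace CfsgLib.FiTwoTwoU62

open H29.CosetCert

open H29.CosetCert.Fi22Cert (cert g H)

/-- A word to a point in each of the two orbits. -/
def sampleFar : List ℕ := [1]

/-- A word to a point of the orbit of 693. -/
def sampleNear : List ℕ := [1, 2, 0, 1]

/-- The word of the product of two transpositions. -/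
def pairWord (u : List ℕ) : List ℕ := 0 :: (u ++ 0 :: u.reverse)

theorem sample_ok : (Fi22Data.orb1.testBit (runR Fi22Data.T sampleFar 0) &&
    Fi22Data.orb2.testBit (runR Fi22Data.T sampleNear 0) &&
    sameOn (pairWord sampleFar ++ pairWord sampleFar ++ pairWord sampleFar) [] &&
    sameOn (pairWord sampleNear ++ pairWord sampleNear) [] &&
    !(sameOn (0 :: sampleNear) (sampleNear ++ [0]))) = true := by decide +kernel

theorem orbits_cover : allIn (fun x => Nat.beq x 0 || Fi22Data.orb1.testBit x || Fi22Data.orb2.testBit x) 0 3510 =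
    true := by decide +kernel

/-- The base point. -/
abbrev o : Fin 3510 := ⟨0, by norm_num⟩

/-- The central generator. -/
noncomputable abbrev ta : Fi := g 0

theorem ta_sq : ta * ta = 1 := cert.g_sq 0

theorem ta_inv : ta⁻¹ = ta := inv_eq_of_mul_eq_one_right ta_sq

theorem ta_comm {h : Fi} (hh : h ∈ H) : ta * h = h * ta := by
  have := congrArg Subtype.val (za_comm ⟨h, hh⟩)
  rwa [Subgroup.coe_mul, Subgroup.coe_mul, za_val] at this

theorem ta_mem : ta ∈ H := by
  rw [show ta = (za : Fi) from za_val.symm]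
  exact za.2

theorem exists_to (x : Fin 3510) : ∃ u : Fi, pr u o = x := by
  obtain ⟨q, hq⟩ := cert.toPt_surjective x
  obtain ⟨a, rfl⟩ := QuotientGroup.mk_surjective q
  exact ⟨a, hq⟩

theorem mem_H_iff {y : Fi} : y ∈ H ↔ pr y o = o := ⟨fun h => Cert.fix_base cert h, mem_of_fix⟩

theorem orbit_trans {m : ℕ} {s sz : ℕ} {l : List ℕ} (hs : s < cert.n)
    (hgrow : growOK cert.T (cert.S.map List.reverse) m l (2 ^ s) = true)
    (hinv : allIn (fun c => bif m.testBit c then
      allIn (fun i => m.testBit (runR cert.T (cert.S.getD i []).reverse c)) 0 cert.S.length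
      else true) 0 cert.n = true)
    (hcnt : countIn m.testBit 0 cert.n = sz) {x y : Fin 3510} (hx : m.testBit x.val = true)
    (hy : m.testBit y.val = true) : ∃ h ∈ H, pr h x = y := by
  obtain ⟨q, -, hq⟩ := cert.exists_orbit hs hgrow hinv hcnt
  obtain ⟨qx, hqx⟩ := cert.toPt_surjective x
  obtain ⟨qy, hqy⟩ := cert.toPt_surjective y
  obtain ⟨h1, e1⟩ := (hq qx).2 (by rw [hqx]; exact hx)
  obtain ⟨h2, e2⟩ := (hq qy).2 (by rw [hqy]; exact hy)
  refine ⟨(h2 * h1⁻¹ : H), SetLike.coe_mem _, ?_⟩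
  have e : (h2 * h1⁻¹) • qx = qy := by
    rw [← e1, ← e2, mul_smul]
    show h2 • h1⁻¹ • h1 • q = h2 • q
    rw [inv_smul_smul]
  have := cert.toPt_smul ((h2 * h1⁻¹ : H) : Fi) qx
  rw [hqx] at this
  exact this.symm.trans ((congrArg cert.toPt e).trans hqy)

theorem word_inv (u : List ℕ) : (u.map g).prod⁻¹ = (u.reverse.map g).prod :=
  inv_eq_of_mul_eq_one_left (rev_prod u)

theorem pairWord_prod (u : List ℕ) :
    ((pairWord u).map g).prod = ta * ((u.map g).prod * ta * (u.map g).prod⁻¹) := by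
  rw [word_inv]
  simp [pairWord, List.prod_append, mul_assoc]

theorem conj_power {y : Fi} {u : List ℕ} {h : Fi} (hh : h ∈ H) (e : pr y o = pr h (pr (u.map g).prod o)) (n : ℕ) :
    (ta * (y * ta * y⁻¹)) ^ n = h * ((pairWord u).map g).prod ^ n * h⁻¹ := by
  set w := (u.map g).prod
  have hk : (h * w)⁻¹ * y ∈ H := mem_H_iff.2 (by
    rw [pr_mul, e, ← pr_mul h, ← pr_mul, inv_mul_cancel, pr_one])
  set k := (h * w)⁻¹ * y
  have hy : y = h * w * k := by simp only [k]; group
  have hconj : y * ta * y⁻¹ = h * (w * ta * w⁻¹) * h⁻¹ := by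
    rw [hy]
    calc h * w * k * ta * (h * w * k)⁻¹ = h * w * (k * ta) * k⁻¹ * (h * w)⁻¹ := by group
      _ = h * w * (ta * k) * k⁻¹ * (h * w)⁻¹ := by rw [ta_comm hk]
      _ = h * (w * ta * w⁻¹) * h⁻¹ := by group
  rw [hconj, pairWord_prod, show ta * (h * (w * ta * w⁻¹) * h⁻¹) = h * (ta * (w * ta * w⁻¹)) * h⁻¹ by
    rw [← mul_assoc, ← mul_assoc ta h, ta_comm hh]; group]
  exact conj_pow

theorem transposition_pair (y : Fi) : (ta * (y * ta * y⁻¹)) ^ 2 = 1 ∨ (ta * (y * ta * y⁻¹)) ^ 3 = 1 := by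
  have hs := sample_ok
  simp only [Bool.and_eq_true] at hs
  obtain ⟨⟨⟨⟨hf, hn⟩, h3⟩, h2⟩, -⟩ := hs
  have hc := allIn_get orbits_cover (pr y o).2
  simp only [Bool.or_eq_true, Nat.beq_eq] at hc
  rcases hc with (h | h) | h
  · left
    have hy : y ∈ H := mem_H_iff.2 (Fin.ext h)
    rw [← ta_comm hy, mul_assoc, mul_inv_cancel, mul_one, ta_sq, one_pow]
  · right
    obtain ⟨k, hk, e⟩ := orbit_trans (s := 1) (by decide) Fi22Data.orb1_grow Fi22Data.orb1_inv Fi22Data.orb1_count
      (x := pr (sampleFar.map g).prod o) (y := pr y o) (by rw [pr_word]; exact hf) h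
    rw [conj_power hk e.symm, pow_succ, pow_two]
    have := word_eq h3
    simp only [List.map_append, List.prod_append, List.map_nil, List.prod_nil] at this
    rw [this]
    group
  · left
    obtain ⟨k, hk, e⟩ := orbit_trans (s := 6) (by decide) Fi22Data.orb2_grow Fi22Data.orb2_inv Fi22Data.orb2_count
      (x := pr (sampleNear.map g).prod o) (y := pr y o) (by rw [pr_word]; exact hn) h
    rw [conj_power hk e.symm, pow_two]
    have := word_eq h2
    simp only [List.map_append, List.prod_append, List.map_nil, List.prod_nil] at this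
    rw [this]
    group

theorem centralizer_eq : Subgroup.centralizer ({ta} : Set Fi) = H := by
  refine le_antisymm (fun y hy => ?_) fun y hy => Subgroup.mem_centralizer_singleton_iff.2 (ta_comm hy).symm
  have hy' : y * ta = ta * y := Subgroup.mem_centralizer_singleton_iff.1 hy
  have hfix : pr ta (pr y o) = pr y o := by
    rw [← pr_mul, ← hy', pr_mul]
    exact congrArg (pr y) (Cert.fix_base cert ta_mem)
  refine mem_H_iff.2 ?_
  by_contra hne
  by_cases hb : Fi22Data.orb2.testBit (pr y o).val = true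
  · have hs := sample_ok
    simp only [Bool.and_eq_true] at hs
    obtain ⟨⟨⟨⟨-, hn⟩, -⟩, -⟩, hd⟩ := hs
    obtain ⟨k, hk, e⟩ := orbit_trans (s := 6) (by decide) Fi22Data.orb2_grow Fi22Data.orb2_inv Fi22Data.orb2_count
      (x := pr y o) (y := pr (sampleNear.map g).prod o) hb (by rw [pr_word]; exact hn)
    set w := (sampleNear.map g).prod
    have hm : y⁻¹ * k⁻¹ * w ∈ H := mem_H_iff.2 (by
      rw [pr_mul, ← e, ← pr_mul, ← pr_mul, inv_mul_cancel_right, inv_mul_cancel, pr_one])
    have hw : w * ta = ta * w := by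
      have h1 : w = k * y * (y⁻¹ * k⁻¹ * w) := by group
      rw [h1]
      calc k * y * (y⁻¹ * k⁻¹ * w) * ta = k * y * (ta * (y⁻¹ * k⁻¹ * w)) := by rw [mul_assoc (k * y), ← ta_comm hm]
        _ = k * (y * ta) * (y⁻¹ * k⁻¹ * w) := by group
        _ = k * (ta * y) * (y⁻¹ * k⁻¹ * w) := by rw [hy']
        _ = (k * ta) * (y * (y⁻¹ * k⁻¹ * w)) := by group
        _ = ta * k * (y * (y⁻¹ * k⁻¹ * w)) := by rw [ta_comm hk]
        _ = ta * (k * y * (y⁻¹ * k⁻¹ * w)) := by group
    have hsame : sameOn (0 :: sampleNear) (sampleNear ++ [0]) = true := (allIn_iff _ _ _).2 fun c _ hc => by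
      have hc' : c < 3510 := by omega
      rw [Nat.beq_eq, ← pr_word _ ⟨c, hc'⟩, ← pr_word _ ⟨c, hc'⟩]
      simp [List.prod_append, w] at hw ⊢
      rw [hw]
    rw [hsame] at hd
    exact Bool.noConfusion hd
  · have hp : inPairs (pr y o) = true := (inPairs_iff _).2 ⟨hne, Bool.eq_false_iff.2 hb⟩
    obtain ⟨-, -, -, -, hd⟩ := pair_spec hp
    exact hd (by rw [← za_mate, za_val, hfix])

theorem ta_ne_one : ta ≠ 1 := by
  intro h
  have h2 := card_ker
  rw [ker_eq, show za = 1 from Subtype.ext (za_val.trans h), Subgroup.zpowers_one_eq_bot, Subgroup.card_bot] at h2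
  exact absurd h2 (by norm_num)

theorem mem_conjugatesOf {d : Fi} : d ∈ conjugatesOf ta ↔ ∃ y, d = y * ta * y⁻¹ := by
  show IsConj ta d ↔ _
  rw [isConj_iff]
  exact ⟨fun ⟨c, hc⟩ => ⟨c, hc.symm⟩, fun ⟨c, hc⟩ => ⟨c, hc.symm⟩⟩

theorem three_transpositions : Cfsg.IsThreeTranspositionClass (conjugatesOf ta) := by
  refine ⟨⟨fun d hd => ?_, fun d hd e he => ?_⟩, ⟨ta, mem_conjugatesOf_self, rfl⟩, ?_⟩
  · obtain ⟨y, rfl⟩ := mem_conjugatesOf.1 hd
    refine orderOf_eq_prime ?_ fun h => ta_ne_one (conj_eq_one_iff.1 h)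
    rw [conj_pow, pow_two, ta_sq]
    group
  · obtain ⟨x, rfl⟩ := mem_conjugatesOf.1 hd
    obtain ⟨y, rfl⟩ := mem_conjugatesOf.1 he
    have key : x * ta * x⁻¹ * (y * ta * y⁻¹) = x * (ta * (x⁻¹ * y * ta * (x⁻¹ * y)⁻¹)) * x⁻¹ := by group
    rw [key, conj_pow, conj_pow]
    rcases transposition_pair (x⁻¹ * y) with h | h
    · exact Or.inl (by rw [h]; group)
    · exact Or.inr (by rw [h]; group)
  · haveI := H29.CosetCert.Fi22Ord.simple
    have h : Subgroup.normalClosure ({ta} : Set Fi) = ⊤ := by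
      refine (Subgroup.Normal.eq_bot_or_eq_top inferInstance).resolve_left fun h => ta_ne_one ?_
      rw [← Subgroup.mem_bot, ← h]
      exact Subgroup.subset_normalClosure rfl
    rw [← h, Subgroup.normalClosure, Group.conjugatesOfSet]
    simp

theorem card_class : Nat.card (conjugatesOf ta) = 3510 := by
  let f : Fin 3510 → conjugatesOf ta := fun x =>
    ⟨(exists_to x).choose * ta * (exists_to x).choose⁻¹, mem_conjugatesOf.2 ⟨_, rfl⟩⟩
  have hinj : Function.Injective f := fun x y h => by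
    have hh := congrArg Subtype.val h
    set u := (exists_to x).choose
    set v := (exists_to y).choose
    change u * ta * u⁻¹ = v * ta * v⁻¹ at hh
    have hm : u⁻¹ * v ∈ H := by
      rw [← centralizer_eq, Subgroup.mem_centralizer_singleton_iff]
      calc u⁻¹ * v * ta = u⁻¹ * (v * ta * v⁻¹) * v := by group
        _ = u⁻¹ * (u * ta * u⁻¹) * v := by rw [hh]
        _ = ta * (u⁻¹ * v) := by group
    rw [mem_H_iff, pr_mul, (exists_to y).choose_spec] at hm
    have := congrArg (pr u) hm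
    rw [← pr_mul, mul_inv_cancel, pr_one, (exists_to x).choose_spec] at this
    exact this.symm
  have hsurj : Function.Surjective f := fun d => by
    obtain ⟨z, hz⟩ := mem_conjugatesOf.1 d.2
    refine ⟨pr z o, Subtype.ext ?_⟩
    show (exists_to (pr z o)).choose * ta * (exists_to (pr z o)).choose⁻¹ = d.1
    set u := (exists_to (pr z o)).choose
    have hm : z⁻¹ * u ∈ H := mem_H_iff.2 (by
      rw [pr_mul, (exists_to (pr z o)).choose_spec, ← pr_mul, inv_mul_cancel, pr_one])
    rw [hz]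
    calc u * ta * u⁻¹ = z * ((z⁻¹ * u) * ta) * u⁻¹ := by group
      _ = z * (ta * (z⁻¹ * u)) * u⁻¹ := by rw [ta_comm hm]
      _ = z * ta * z⁻¹ := by group
  rw [← Nat.card_congr (Equiv.ofBijective f ⟨hinj, hsurj⟩), Nat.card_fin]

theorem nonsplit_congr {A B K : Type*} [Group A] [Group B] [Group K] (e : A ≃* B)
    (h : Cfsg.IsNonsplitDoubleCover A K) : Cfsg.IsNonsplitDoubleCover B K := by
  obtain ⟨h1, ⟨f⟩, h3⟩ := h
  have hc : (Subgroup.center A).map e.toMonoidHom = Subgroup.center B := by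
    ext x
    rw [Subgroup.mem_map]
    constructor
    · rintro ⟨a, ha, rfl⟩
      rw [Subgroup.mem_center_iff]
      intro b
      obtain ⟨b, rfl⟩ := e.surjective b
      simp [← map_mul, Subgroup.mem_center_iff.1 ha b]
    · intro hx
      refine ⟨e.symm x, ?_, e.apply_symm_apply x⟩
      rw [Subgroup.mem_center_iff]
      intro a
      apply e.injective
      simp [Subgroup.mem_center_iff.1 hx (e a)]
  refine ⟨?_, ⟨(QuotientGroup.congr _ _ e hc).symm.trans f⟩, fun L hL => ?_⟩
  · rw [← hc, Subgroup.card_map_of_injective e.injective, h1]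
  · refine h3 (L.map e.symm.toMonoidHom) (Subgroup.isComplement'_of_disjoint_and_mul_eq_univ ?_ ?_)
    · rw [Subgroup.disjoint_def]
      rintro x hx ⟨y, hy, rfl⟩
      have hy1 : y ∈ Subgroup.center B := hc ▸ ⟨_, hx, e.apply_symm_apply y⟩
      simp [Subgroup.disjoint_def.1 hL.disjoint hy1 hy]
    · refine Set.eq_univ_of_forall fun a => ?_
      obtain ⟨⟨⟨c, hc1⟩, ⟨l, hl⟩⟩, he⟩ := hL.existsUnique (e a) |>.exists
      rw [← hc] at hc1
      obtain ⟨c', hc', rfl⟩ := hc1
      exact ⟨c', hc', _, ⟨l, hl, rfl⟩, by apply e.injective; simpa using he⟩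

theorem centralizer_double_cover {d : Fi} (hd : d ∈ conjugatesOf ta) :
    Cfsg.IsNonsplitDoubleCover (Subgroup.centralizer ({d} : Set Fi)) (Cfsg.PSU 6 CfsgLib.G2Four.Q 2) := by
  obtain ⟨y, rfl⟩ := mem_conjugatesOf.1 hd
  have h : H.map (MulAut.conj y).toMonoidHom = Subgroup.centralizer ({y * ta * y⁻¹} : Set Fi) := by
    rw [← centralizer_eq]
    ext z
    rw [Subgroup.mem_map_equiv, Subgroup.mem_centralizer_singleton_iff, Subgroup.mem_centralizer_singleton_iff]
    simp only [MulAut.conj_symm_apply]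
    constructor
    · intro e
      calc z * (y * ta * y⁻¹) = y * (y⁻¹ * z * y * ta) * y⁻¹ := by group
        _ = y * (ta * (y⁻¹ * z * y)) * y⁻¹ := by rw [e]
        _ = y * ta * y⁻¹ * z := by group
    · intro e
      calc y⁻¹ * z * y * ta = y⁻¹ * (z * (y * ta * y⁻¹)) * y := by group
        _ = y⁻¹ * (y * ta * y⁻¹ * z) * y := by rw [e]
        _ = ta * (y⁻¹ * z * y) := by group
  exact nonsplit_congr ((H.equivMapOfInjective _ (MulEquiv.injective _)).trans (MulEquiv.subgroupCongr h)) double_cover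

end CfsgLib.FiTwoTwoU62
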